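import Mathlib
import Cfsg.Agent.Lib.Flavell.Powell
import Cfsg.Agent.Lib.Core.MinNormal
import Cfsg.Agent.Lib.Core.Cores
import Cfsg.Agent.Lib.Coprime.Sylow
import Cfsg.Agent.Lib.PLocal.PSolvable

/-!
# The lower `p`-series; a `p`-soluble group has a 2-generated subgroup of the same height
-/

set_option autoImplicit false

namespace CfsgLib.Flavell

open scoped Pointwise commutatorElement
open Subgroup CfsgLib.Coprime

universe u

variable {G : Type*} [Group G]

/-- The subgroup generated by the `π`-elements of `L`. -/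
def res (π : Set ℕ) (L : Subgroup G) : Subgroup G := closure {x | x ∈ L ∧ IsPiNum π (orderOf x)}

theorem res_le (π : Set ℕ) (L : Subgroup G) : res π L ≤ L := (closure_le _).2 fun _ h => h.1

theorem res_mono (π : Set ℕ) {K L : Subgroup G} (h : K ≤ L) : res π K ≤ res π L :=
  closure_mono fun _ hx => ⟨h hx.1, hx.2⟩

theorem mem_res {π : Set ℕ} {L : Subgroup G} {x : G} (hx : x ∈ L) (h : IsPiNum π (orderOf x)) :
    x ∈ res π L := subset_closure ⟨hx, h⟩

theorem map_res [Finite G] {Q : Type*} [Group Q] (f : G →* Q) (π : Set ℕ) (L : Subgroup G) :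
    (res π L).map f = res π (L.map f) := by
  apply le_antisymm
  · rw [map_le_iff_le_comap, res, closure_le]
    intro x hx
    exact mem_res (mem_map_of_mem f hx.1) (hx.2.of_dvd (orderOf_map_dvd f x))
  · rw [res, closure_le]
    rintro _ ⟨⟨x, hx, rfl⟩, h⟩
    obtain ⟨k, h1, h2⟩ := exists_pow_isPiNum f h
    exact ⟨x ^ k, mem_res (L.pow_mem hx k) h2, h1⟩

theorem normalizer_le_res [Finite G] (π : Set ℕ) (L : Subgroup G) :
    normalizer (L : Set G) ≤ normalizer (res π L : Set G) := by
  intro g hg
  rw [Core.mem_normalizer_iff_map_conj_eq'] at hg ⊢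
  rw [map_res, hg]

theorem res_eq_bot_iff [Finite G] {π : Set ℕ} {L : Subgroup G} :
    res π L = ⊥ ↔ IsPiNum πᶜ (Nat.card L) := by
  constructor
  · intro h
    refine isPiNum_card_of_forall fun x hx h1 => ?_
    rw [compl_compl] at h1
    exact mem_bot.1 (h ▸ mem_res hx h1)
  · intro h
    rw [eq_bot_iff, res, closure_le]
    intro x hx
    exact eq_one_of_isPiNum h hx.1 (by rw [compl_compl]; exact hx.2)

/-- Alternately `{p}` and its complement. -/
def alt (p : ℕ) : ℕ → Set ℕ
  | 0 => {p}
  | n + 1 => (alt p n)ᶜ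

theorem alt_cases (p n : ℕ) : alt p n = {p} ∨ alt p n = {p}ᶜ := by
  induction n with
  | zero => exact Or.inl rfl
  | succ n ih => rcases ih with h | h <;> simp [alt, h]

/-- The lower `p`-series `L, O^{p'}(L), O^{p}(O^{p'}(L)), …`. -/
def low (p : ℕ) (L : Subgroup G) : ℕ → Subgroup G
  | 0 => L
  | n + 1 => res (alt p n) (low p L n)

variable {p : ℕ}

theorem low_succ (L : Subgroup G) (n : ℕ) : low p L (n + 1) = res (alt p n) (low p L n) := rfl

theorem low_le (L : Subgroup G) (n : ℕ) : low p L n ≤ L := by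
  induction n with
  | zero => exact le_rfl
  | succ n ih => exact (res_le _ _).trans ih

theorem low_mono {K L : Subgroup G} (h : K ≤ L) (n : ℕ) : low p K n ≤ low p L n := by
  induction n with
  | zero => exact h
  | succ n ih => exact res_mono _ ih

theorem low_anti (L : Subgroup G) {m n : ℕ} (h : m ≤ n) : low p L n ≤ low p L m := by
  induction h with
  | refl => exact le_rfl
  | step _ ih => exact (res_le _ _).trans ih

theorem map_low [Finite G] {Q : Type*} [Group Q] (f : G →* Q) (L : Subgroup G) (n : ℕ) :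
    (low p L n).map f = low p (L.map f) n := by
  induction n with
  | zero => rfl
  | succ n ih => rw [low_succ, map_res, ih, low_succ]

theorem normalizer_le_low [Finite G] (L : Subgroup G) (n : ℕ) :
    normalizer (L : Set G) ≤ normalizer (low p L n : Set G) := by
  induction n with
  | zero => exact le_rfl
  | succ n ih => exact ih.trans (normalizer_le_res _ _)

theorem low_top_normal [Finite G] (n : ℕ) : (low p (⊤ : Subgroup G) n).Normal := by
  rw [← normalizer_eq_top_iff, eq_top_iff]
  exact le_trans (by rw [normalizer_eq_top]) (normalizer_le_low ⊤ n)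

theorem isPiNum_singleton_of_isPGroup [Finite G] (hp : p.Prime) (h : IsPGroup p G) :
    IsPiNum {p} (Nat.card G) := isPiNum_card_of_isPGroup hp h rfl

theorem isPGroup_of_isPiNum_singleton [Finite G] (hp : p.Prime) (h : IsPiNum {p} (Nat.card G)) :
    IsPGroup p G := by
  have := Fact.mk hp
  exact IsPGroup.of_card (Nat.eq_prime_pow_of_unique_prime_dvd Nat.card_pos.ne' fun hq hd => h _ hq hd)

theorem exists_normal_pi [Finite G] [hp : Fact p.Prime] (h : Cfsg.IsPSolvable p G) [Nontrivial G]
    (n : ℕ) : ∃ N : Subgroup G, N.Normal ∧ N ≠ ⊥ ∧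
      (IsPiNum (alt p n) (Nat.card N) ∨ IsPiNum (alt p n)ᶜ (Nat.card N)) := by
  have key : ∀ N : Subgroup G, IsPiNum {p} (Nat.card N) ∨ IsPiNum {p}ᶜ (Nat.card N) →
      IsPiNum (alt p n) (Nat.card N) ∨ IsPiNum (alt p n)ᶜ (Nat.card N) := by
    intro N hN
    rcases alt_cases p n with e | e
    · rwa [e]
    · rw [e, compl_compl]; exact hN.symm
  rcases PLocal.PSolv.pCore_ne_bot_or h with h1 | h1
  · have := Core.pCore_characteristic p G
    exact ⟨_, Subgroup.normal_of_characteristic _, h1,
      key _ (Or.inl (isPiNum_singleton_of_isPGroup hp.out (Core.isPGroup_pCore p G)))⟩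
  · have := Core.pPrimeCore_characteristic p G
    exact ⟨_, Subgroup.normal_of_characteristic _, h1,
      key _ (Or.inr ((IsPiNum.compl_singleton_iff hp.out).2 (Core.coprime_card_pPrimeCore p G)))⟩

theorem exists_low_eq_bot_aux [Fact p.Prime] (c : ℕ) : ∀ (G : Type u) [Group G] [Finite G],
    Nat.card G = c → Cfsg.IsPSolvable p G → ∃ n, low p (⊤ : Subgroup G) n = ⊥ := by
  induction c using Nat.strong_induction_on with
  | _ c ih =>
  intro G _ _ hc h
  rcases subsingleton_or_nontrivial G with hG | hG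
  · exact ⟨0, Subsingleton.elim _ _⟩
  obtain ⟨N, hNn, hN1, -⟩ := exists_normal_pi h 0
  obtain ⟨M, hMn, hM1, -, hM⟩ := Core.exists_minimal_normal_le hN1
  obtain ⟨n, hn⟩ := ih _ (hc ▸ Core.card_quotient_lt_of_ne_bot hM1) (G ⧸ M) rfl
    (PLocal.PSolv.quotient h M)
  have h1 : low p (⊤ : Subgroup G) n ≤ M := by
    rw [← QuotientGroup.ker_mk' M, ← Subgroup.map_eq_bot_iff, map_low,
      map_top_of_surjective _ (QuotientGroup.mk'_surjective M), hn]
  have : Nontrivial M := (nontrivial_iff_ne_bot M).2 hM1
  have hMs := PLocal.PSolv.subgroup h M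
  have h2 : IsPiNum (alt p n) (Nat.card M) ∨ IsPiNum (alt p n)ᶜ (Nat.card M) := by
    by_contra hc'
    push Not at hc'
    have h3 : res (alt p n) M = M := (hM _ (by
      rw [← normalizer_eq_top_iff, eq_top_iff]
      exact le_trans (by rw [normalizer_eq_top]) (normalizer_le_res _ M)) (res_le _ _)).resolve_left
      fun e => hc'.2 (res_eq_bot_iff.1 e)
    rcases PLocal.PSolv.pCore_ne_bot_or hMs with h4 | h4
    · have := Core.map_pCore_normal (p := p) M
      have h5 := (hM _ this (map_subtype_le _)).resolve_left fun e =>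
        h4 ((map_eq_bot_iff_of_injective _ M.subtype_injective).1 e)
      have h6 := isPiNum_singleton_of_isPGroup Fact.out (h5 ▸ Core.isPGroup_map_pCore (p := p) M)
      rcases alt_cases p n with e | e
      · exact hc'.1 (e ▸ h6)
      · exact hc'.2 (by rw [e, compl_compl]; exact h6)
    · have := Core.map_pPrimeCore_normal (p := p) M
      have h5 := (hM _ this (map_subtype_le _)).resolve_left fun e =>
        h4 ((map_eq_bot_iff_of_injective _ M.subtype_injective).1 e)
      have h6 := (IsPiNum.compl_singleton_iff Fact.out).2 (h5 ▸ Core.coprime_card_map_pPrimeCore (p := p) M)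
      rcases alt_cases p n with e | e
      · exact hc'.2 (e ▸ h6)
      · exact hc'.1 (e ▸ h6)
  rcases h2 with h2 | h2
  · refine ⟨n + 2, ?_⟩
    rw [low_succ, res_eq_bot_iff, alt, compl_compl]
    exact h2.of_dvd (card_dvd_of_le ((res_le _ _).trans h1))
  · refine ⟨n + 1, ?_⟩
    rw [low_succ, res_eq_bot_iff]
    exact h2.of_dvd (card_dvd_of_le h1)

theorem low_eq_map_subtype [Finite G] (L : Subgroup G) (n : ℕ) :
    low p L n = (low p (⊤ : Subgroup L) n).map L.subtype := by
  rw [map_low, ← MonoidHom.range_eq_map, range_subtype]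

theorem exists_low_eq_bot [Finite G] [Fact p.Prime] {L : Subgroup G} (h : Cfsg.IsPSolvable p L) :
    ∃ n, low p L n = ⊥ := by
  obtain ⟨n, hn⟩ := exists_low_eq_bot_aux _ L rfl h
  exact ⟨n, by rw [low_eq_map_subtype, hn, Subgroup.map_bot]⟩

end CfsgLib.Flavell
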