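import Mathlib
import Cfsg.Agent.Lib.Flavell.Height
import Cfsg.Agent.Lib.Coprime.SchurZassenhaus

/-!
# Carter–Fischer–Hawkes: a `p`-soluble group has a 2-generated subgroup of the same `p`-height
-/

set_option autoImplicit false

namespace CfsgLib.Flavell

open scoped Pointwise commutatorElement
open Subgroup CfsgLib.Coprime

universe u

variable {G : Type*} [Group G]

/-- Counting lemma: if every pair `a v, b w` is conjugate into `N` by an element of `V`, then
`V ≤ N`. -/
theorem count_aux [Finite G] {V N : Subgroup G} [hV : V.Normal] {a b : G} (ha : a ∈ N) (hb : b ∈ N)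
    (h : ∀ v ∈ V, ∀ w ∈ V, ∃ u ∈ V, u⁻¹ * (a * v) * u ∈ N ∧ u⁻¹ * (b * w) * u ∈ N) : V ≤ N := by
  set D : Subgroup V := N.subgroupOf V with hD
  have hc : ∀ (c : G) (u : V) (d : D), c⁻¹ * u * c * (d : V) * (u : G)⁻¹ ∈ V := fun c u d =>
    V.mul_mem (V.mul_mem (by simpa using hV.conj_mem _ u.2 c⁻¹) (d : V).2) (V.inv_mem u.2)
  let Φ : (V ⧸ D) × D × D → V × V := fun x =>
    (⟨_, hc a x.1.out x.2.1⟩, ⟨_, hc b x.1.out x.2.2⟩)
  have hΦ : Function.Surjective Φ := by
    rintro ⟨v, w⟩
    obtain ⟨u, hu, h1, h2⟩ := h v v.2 w w.2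
    obtain ⟨d, hd⟩ := QuotientGroup.mk_out_eq_mul D (⟨u, hu⟩ : V)
    set q : V ⧸ D := QuotientGroup.mk (⟨u, hu⟩ : V)
    have hdN : ((d : V) : G) ∈ N := d.2
    have key : ∀ (c : G) (y : V), c ∈ N → u⁻¹ * (c * y) * u ∈ N →
        ∃ e : D, c⁻¹ * (q.out : V) * c * (e : V) * ((q.out : V) : G)⁻¹ = y := by
      intro c y hcN hy
      have hm : c⁻¹ * ((q.out : V) : G)⁻¹ * c * y * (q.out : V) ∈ V :=
        V.mul_mem (V.mul_mem (by simpa using hV.conj_mem _ (V.inv_mem (q.out : V).2) c⁻¹) y.2)
          (q.out : V).2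
      refine ⟨⟨⟨_, hm⟩, ?_⟩, by simp only; group⟩
      change c⁻¹ * ((q.out : V) : G)⁻¹ * c * y * (q.out : V) ∈ N
      rw [hd]
      have e : c⁻¹ * (((⟨u, hu⟩ : V) * (d : V) : V) : G)⁻¹ * c * y * (((⟨u, hu⟩ : V) * (d : V) : V) : G)
          = c⁻¹ * (((d : V) : G)⁻¹ * (u⁻¹ * (c * y) * u) * (d : V)) := by
        simp only [Subgroup.coe_mul]; group
      rw [e]
      exact N.mul_mem (N.inv_mem hcN) (N.mul_mem (N.mul_mem (N.inv_mem hdN) hy) hdN)
    obtain ⟨e1, he1⟩ := key a v ha h1
    obtain ⟨e2, he2⟩ := key b w hb h2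
    exact ⟨(q, e1, e2), Prod.ext (Subtype.ext he1) (Subtype.ext he2)⟩
  have h1 := Nat.card_le_card_of_surjective Φ hΦ
  rw [Nat.card_prod, Nat.card_prod, Nat.card_prod, ← mul_assoc,
    ← Subgroup.card_eq_card_quotient_mul_card_subgroup] at h1
  have h2 : Nat.card V ≤ Nat.card D := Nat.le_of_mul_le_mul_left h1 Nat.card_pos
  have h3 : D = ⊤ := Subgroup.eq_top_of_le_card _ h2
  rwa [hD, subgroupOf_eq_top] at h3

theorem isSolvable_or {p : ℕ} (hp : p.Prime) [Finite G] {n : ℕ} {A B : Subgroup G}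
    (hA : IsPiNum (alt p n)ᶜ (Nat.card A)) (hB : IsPiNum (alt p n) (Nat.card B)) :
    Group.IsSolvable A ∨ Group.IsSolvable B := by
  have := Fact.mk hp
  rcases alt_cases p n with e | e
  · right
    rw [e] at hB
    have := (isPGroup_of_isPiNum_singleton hp hB).isNilpotent
    infer_instance
  · left
    rw [e, compl_compl] at hA
    have := (isPGroup_of_isPiNum_singleton hp hA).isNilpotent
    infer_instance

theorem isPiNum_relIndex_res [Finite G] (π : Set ℕ) {X : Subgroup G} [hV : (res π X).Normal] :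
    IsPiNum πᶜ ((res π X).relIndex X) := by
  have h1 : res π (X.map (QuotientGroup.mk' (res π X))) = ⊥ := by
    rw [← map_res, Subgroup.map_eq_bot_iff, QuotientGroup.ker_mk']
  rw [res_eq_bot_iff] at h1
  have h2 := Core.card_map_mk'_mul_card_inf X (res π X)
  have h3 := Core.card_inf_mul_relIndex (res π X) X
  rw [inf_comm, ← h2, mul_comm] at h3
  rw [Nat.eq_of_mul_eq_mul_right Nat.card_pos h3]
  exact h1

/-- In the minimal situation, the `πᶜ`-elements of `X` that centralize `V` are trivial. -/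
theorem eq_bot_of_le_centralizer [Finite G] {π : Set ℕ} {X V T : Subgroup G} [X.Normal] [V.Normal]
    (hV1 : V ≠ ⊥) (hV : IsPiNum π (Nat.card V)) (hX : IsPiNum πᶜ (V.relIndex X))
    (hmin : ∀ N : Subgroup G, N.Normal → N ≠ ⊥ → V ≤ N) (hT : IsPiNum πᶜ (Nat.card T))
    (hTX : T ≤ X) (hTV : T ≤ centralizer (V : Set G)) : T = ⊥ := by
  set C : Subgroup G := X ⊓ centralizer (V : Set G) with hC
  have hCn : C.Normal := inferInstance
  have hVC : (V ⊓ C).Normal := inferInstance
  have hrel : IsPiNum πᶜ ((V ⊓ C).relIndex C) := by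
    rw [inf_relIndex_right]
    exact hX.of_dvd (PLocal.PSolv.relIndex_dvd_of_le_right inf_le_left)
  have hVCπ : IsPiNum π (Nat.card (V ⊓ C : Subgroup G)) := hV.of_dvd (card_dvd_of_le inf_le_left)
  obtain ⟨H, hHC, hH1, hH2, hH3⟩ := exists_complement_of_le_normalizer (N := V ⊓ C) (L := C)
    inf_le_right (by rw [normalizer_eq_top]; exact le_top) (hVCπ.coprime hrel)
  have hHπ : IsPiNum πᶜ (Nat.card H) := hH3 ▸ hrel
  have hVH : V ⊓ C ≤ normalizer (H : Set G) := by
    refine le_trans ?_ (centralizer_le_normalizer _)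
    exact inf_le_left.trans (le_centralizer_iff.1 (hHC.trans inf_le_right))
  have hCH : C ≤ normalizer (H : Set G) := by
    rw [← hH2]; exact sup_le hVH le_normalizer
  have hidx : IsPiNum π (H.relIndex C) :=
    hVCπ.of_dvd (relIndex_dvd_of_le_sup hVH (by rw [sup_comm, hH2]))
  have hres : res πᶜ C ≤ H := by
    rw [res, closure_le]
    intro x hx
    have : zpowers x ≤ H := le_of_coprime_relIndex hCH (by simpa using hx.1)
      (by rw [Nat.card_zpowers]; exact (hidx.coprime hx.2).symm)
    exact this (mem_zpowers x)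
  have hRn : (res πᶜ C).Normal := by
    rw [← normalizer_eq_top_iff, eq_top_iff]
    exact le_trans (by rw [normalizer_eq_top]) (normalizer_le_res _ C)
  by_cases hR : res πᶜ C = ⊥
  · rw [eq_bot_iff]
    intro x hx
    rw [← hR]
    exact mem_res ⟨hTX hx, hTV hx⟩ (hT.of_dvd (by
      have := orderOf_dvd_natCard (⟨x, hx⟩ : T)
      rwa [Subgroup.orderOf_mk] at this))
  · exfalso
    apply hV1
    have h1 := (hmin _ hRn hR).trans hres
    have := Core.inf_eq_bot_of_coprime_card (hV.coprime hHπ)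
    rwa [inf_eq_left.2 h1] at this

theorem map_closure_pair {Q : Type*} [Group Q] (f : G →* Q) (a b : G) :
    (closure ({a, b} : Set G)).map f = closure {f a, f b} := by
  rw [MonoidHom.map_closure, Set.image_pair]

theorem cfh_aux {p : ℕ} [hp : Fact p.Prime] (c : ℕ) : ∀ (G : Type u) [Group G] [Finite G],
    Nat.card G = c → Cfsg.IsPSolvable p G → ∀ n, low p (⊤ : Subgroup G) n ≠ ⊥ →
      ∃ a b : G, low p (closure ({a, b} : Set G)) n ≠ ⊥ := by
  induction c using Nat.strong_induction_on with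
  | _ c ih =>
  intro G _ _ hc h n hn
  by_contra hcon
  push Not at hcon
  -- proper subgroups have smaller height
  have hprop : ∀ H : Subgroup G, H ≠ ⊤ → low p H n = ⊥ := by
    intro H hH
    by_contra h1
    have h2 : low p (⊤ : Subgroup H) n ≠ ⊥ := fun e => h1 (by
      rw [low_eq_map_subtype, e, Subgroup.map_bot])
    obtain ⟨a, b, hab⟩ := ih _ (hc ▸ Core.card_lt_of_ne_top hH) H rfl (PLocal.PSolv.subgroup h H) n h2
    apply hab
    rw [← map_eq_bot_iff_of_injective _ H.subtype_injective, map_low, map_closure_pair]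
    exact hcon _ _
  -- quotients
  have hquot : ∀ (N : Subgroup G) [N.Normal], N ≠ ⊥ → ∀ m, ¬ low p (⊤ : Subgroup G) m ≤ N →
      ∃ a b : G, ¬ low p (closure ({a, b} : Set G)) m ≤ N := by
    intro N _ hN m hm
    have h2 : low p (⊤ : Subgroup (G ⧸ N)) m ≠ ⊥ := fun e => hm (by
      rw [← QuotientGroup.ker_mk' N, ← Subgroup.map_eq_bot_iff, map_low,
        map_top_of_surjective _ (QuotientGroup.mk'_surjective N), e])
    obtain ⟨a, b, hab⟩ := ih _ (hc ▸ Core.card_quotient_lt_of_ne_bot hN) (G ⧸ N) rfl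
      (PLocal.PSolv.quotient h N) m h2
    obtain ⟨a, rfl⟩ := QuotientGroup.mk'_surjective N a
    obtain ⟨b, rfl⟩ := QuotientGroup.mk'_surjective N b
    refine ⟨a, b, fun e => hab ?_⟩
    rw [← map_closure_pair, ← map_low, Subgroup.map_eq_bot_iff, QuotientGroup.ker_mk']
    exact e
  have hmin : ∀ N : Subgroup G, N.Normal → N ≠ ⊥ → low p (⊤ : Subgroup G) n ≤ N := by
    intro N _ hN
    by_contra h1
    obtain ⟨a, b, hab⟩ := hquot N hN n h1
    exact hab (by rw [hcon]; exact bot_le)
  have hnt : Nontrivial G := by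
    by_contra h1
    rw [not_nontrivial_iff_subsingleton] at h1
    exact hn (Subsingleton.elim _ _)
  obtain ⟨a₀, ha₀⟩ := exists_ne (1 : G)
  have ha₀m : a₀ ∈ closure ({a₀, a₀} : Set G) := subset_closure (by simp)
  rcases n with _ | m
  · exact ha₀ (mem_bot.1 (hcon a₀ a₀ ▸ ha₀m))
  set X : Subgroup G := low p ⊤ m with hX
  have hXn : X.Normal := low_top_normal m
  have hVn : (res (alt p m) X).Normal := low_top_normal (m + 1)
  set V : Subgroup G := res (alt p m) X with hV
  have hVl : low p (⊤ : Subgroup G) (m + 1) = V := rfl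
  rw [hVl] at hn hmin
  have hVπ : IsPiNum (alt p m) (Nat.card V) := by
    obtain ⟨N, hNn, hN1, hN⟩ := exists_normal_pi h m
    have h1 := card_dvd_of_le (hmin N hNn hN1)
    rcases hN with hN | hN
    · exact hN.of_dvd h1
    · exfalso
      apply hn
      rw [eq_bot_iff, hV, res, closure_le]
      intro x hx
      exact eq_one_of_isPiNum (hN.of_dvd h1) (mem_res hx.1 hx.2) (by rw [compl_compl]; exact hx.2)
  have hXV : ¬ X ≤ V := by
    intro h1
    rcases m with _ | k
    · have h2 : a₀ ∈ low p (closure ({a₀, a₀} : Set G)) 1 := by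
        refine mem_res ha₀m (hVπ.of_dvd ?_)
        have := orderOf_dvd_natCard (⟨a₀, h1 (mem_top a₀)⟩ : V)
        rwa [Subgroup.orderOf_mk] at this
      exact ha₀ (mem_bot.1 (hcon a₀ a₀ ▸ h2))
    · apply hn
      rw [eq_bot_iff]
      refine (res_le _ _).trans ?_
      rw [hX, low_succ, res, closure_le]
      intro x hx
      exact eq_one_of_isPiNum hVπ (h1 (mem_res hx.1 hx.2)) (by rw [alt, compl_compl]; exact hx.2)
  have hrel := isPiNum_relIndex_res (alt p m) (X := X)
  rw [← hV] at hrel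
  obtain ⟨a, b, hab⟩ := hquot V hn m hXV
  have hlowX : ∀ A : Subgroup G, low p A m ≤ X := fun A => low_mono le_top m
  have hlowπ : ∀ A : Subgroup G, low p A (m + 1) = ⊥ → IsPiNum (alt p m)ᶜ (Nat.card (low p A m)) :=
    fun A hA => res_eq_bot_iff.1 hA
  have hcent : ∀ T : Subgroup G, IsPiNum (alt p m)ᶜ (Nat.card T) → T ≤ X →
      V ≤ normalizer (T : Set G) → T = ⊥ := by
    intro T hT hTX hVT
    refine eq_bot_of_le_centralizer hn hVπ hrel hmin hT hTX ?_
    exact Core.le_centralizer_of_le_normalizer_of_disjoint (by rw [normalizer_eq_top]; exact le_top)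
      hVT (Core.inf_eq_bot_of_coprime_card (hVπ.coprime hT).symm)
  have hB : closure ({a, b} : Set G) ⊔ V = ⊤ := by
    by_contra h1
    have h2 := hcent _ (hlowπ _ (hprop _ h1)) (hlowX _)
      ((le_sup_right.trans le_normalizer).trans (normalizer_le_low _ m))
    exact hab ((low_mono le_sup_left m).trans (h2.le.trans bot_le))
  -- each `low ⟨a v, b w⟩ m` covers `X / V`
  have hcov : ∀ v ∈ V, ∀ w ∈ V, X ≤ V ⊔ low p (closure ({a * v, b * w} : Set G)) m := by
    intro v hv w hw
    have e1 : (closure ({a * v, b * w} : Set G)).map (QuotientGroup.mk' V) = ⊤ := by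
      have e2 : (closure ({a, b} : Set G) ⊔ V).map (QuotientGroup.mk' V) = ⊤ := by
        rw [hB, map_top_of_surjective _ (QuotientGroup.mk'_surjective V)]
      rw [Subgroup.map_sup, (Subgroup.map_eq_bot_iff V).2 (by rw [QuotientGroup.ker_mk']),
        sup_bot_eq, map_closure_pair] at e2
      rw [map_closure_pair, map_mul, map_mul,
        (QuotientGroup.eq_one_iff v).2 hv |> fun e => (show QuotientGroup.mk' V v = 1 from e),
        (QuotientGroup.eq_one_iff w).2 hw |> fun e => (show QuotientGroup.mk' V w = 1 from e),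
        mul_one, mul_one, e2]
    have e3 : X.map (QuotientGroup.mk' V) =
        (low p (closure ({a * v, b * w} : Set G)) m).map (QuotientGroup.mk' V) := by
      rw [hX, map_low, map_low, e1, map_top_of_surjective _ (QuotientGroup.mk'_surjective V)]
    have e4 := congrArg (Subgroup.comap (QuotientGroup.mk' V)) e3
    rw [comap_map_eq, comap_map_eq, QuotientGroup.ker_mk', sup_comm _ V, sup_comm _ V] at e4
    rw [← e4]
    exact le_sup_right
  set T : Subgroup G := low p (closure ({a, b} : Set G)) m with hT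
  have hTπ : IsPiNum (alt p m)ᶜ (Nat.card T) := hlowπ _ (hcon a b)
  have hVT : V ≤ normalizer (T : Set G) := by
    have hN : closure ({a, b} : Set G) ≤ normalizer (T : Set G) :=
      le_normalizer.trans (normalizer_le_low _ m)
    refine count_aux (a := a) (b := b) (hN (subset_closure (by simp)))
      (hN (subset_closure (by simp))) fun v hv w hw => ?_
    set T' : Subgroup G := low p (closure ({a * v, b * w} : Set G)) m with hT'
    have hT'π : IsPiNum (alt p m)ᶜ (Nat.card T') := hlowπ _ (hcon _ _)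
    have hN' : closure ({a * v, b * w} : Set G) ≤ normalizer (T' : Set G) :=
      le_normalizer.trans (normalizer_le_low _ m)
    have hcard : Nat.card T' ≤ Nat.card T := by
      have h1 : T' ≤ V ⊔ T := (hlowX _).trans (by simpa using hcov 1 V.one_mem 1 V.one_mem)
      obtain ⟨k, -, hk⟩ := exists_conj_smul_le_of_le_sup (K := V) (A := T') (S := T)
        (by rw [normalizer_eq_top]; exact le_top) h1 (hVπ.coprime hT'π).symm
        (isSolvable_or hp.out hT'π hVπ)
      rw [← Core.card_conj_smul T' k]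
      exact card_le_of_le hk
    obtain ⟨u, hu, hk⟩ := exists_conj_smul_eq_of_le_sup (K := V) (A := T) (S := T')
      (by rw [normalizer_eq_top]; exact le_top) ((hlowX _).trans (hcov v hv w hw))
      (hVπ.coprime hTπ).symm (isSolvable_or hp.out hTπ hVπ) hcard
    have key : ∀ y, y ∈ normalizer (T' : Set G) → u⁻¹ * y * u ∈ normalizer (T : Set G) := by
      intro y hy
      rw [Core.mem_normalizer_iff_conj_smul_eq] at hy ⊢
      rw [map_mul, map_mul, mul_smul, mul_smul, hk, hy, ← hk, map_inv, inv_smul_smul]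
    exact ⟨u, hu, key _ (hN' (subset_closure (by simp))), key _ (hN' (subset_closure (by simp)))⟩
  exact hab ((hcent T hTπ (hlowX _) hVT).le.trans bot_le)

/-- A `p`-soluble subgroup `L` has a 2-generated subgroup of the same `p`-height. -/
theorem cfh [Finite G] {p : ℕ} [Fact p.Prime] {L : Subgroup G} (h : Cfsg.IsPSolvable p L) {n : ℕ}
    (hn : ∀ a b : G, low p (closure ({a, b} : Set G)) n = ⊥) : low p L n = ⊥ := by
  by_contra h1
  have h2 : low p (⊤ : Subgroup L) n ≠ ⊥ := fun e => h1 (by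
    rw [low_eq_map_subtype, e, Subgroup.map_bot])
  obtain ⟨a, b, hab⟩ := cfh_aux _ L rfl h n h2
  apply hab
  rw [← map_eq_bot_iff_of_injective _ L.subtype_injective, map_low, map_closure_pair]
  exact hn _ _

end CfsgLib.Flavell
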